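import Mathlib
import Cfsg.Prelude.Def_TwoFusion

set_option autoImplicit false

namespace Cfsg.Agent.Lib.Helper20

variable {G : Type*} [Group G]

theorem iso_sq {z : G} (hz : Cfsg.IsIsolatedInvolution z) : z * z = 1 := by
  have := pow_orderOf_eq_one z
  rw [hz.1, pow_two] at this
  exact this

theorem iso_inv {z : G} (hz : Cfsg.IsIsolatedInvolution z) : z⁻¹ = z :=
  inv_eq_of_mul_eq_one_left (iso_sq hz)

theorem iso_ne_one {z : G} (hz : Cfsg.IsIsolatedInvolution z) : z ≠ 1 := by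
  intro h
  have := hz.1
  rw [h, orderOf_one] at this
  omega

/-- conjugates of an isolated involution are isolated -/
theorem iso_conj {z : G} (hz : Cfsg.IsIsolatedInvolution z) (h : G) :
    Cfsg.IsIsolatedInvolution (h * z * h⁻¹) := by
  refine ⟨?_, ?_⟩
  · have : h * z * h⁻¹ = MulAut.conj h z := rfl
    rw [this, MulEquiv.orderOf_eq, hz.1]
  · intro g hc
    have h1 : Commute z ((h⁻¹ * g * h) * z * (h⁻¹ * g * h)⁻¹) := by
      have h2 : (h⁻¹ * g * h) * z * (h⁻¹ * g * h)⁻¹ = h⁻¹ * (g * (h * z * h⁻¹) * g⁻¹) * h := by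
        group
      have h3 : z = h⁻¹ * (h * z * h⁻¹) * h := by group
      rw [h2]
      nth_rewrite 1 [h3]
      unfold Commute SemiconjBy at hc ⊢
      calc h⁻¹ * (h * z * h⁻¹) * h * (h⁻¹ * (g * (h * z * h⁻¹) * g⁻¹) * h)
          = h⁻¹ * ((h * z * h⁻¹) * (g * (h * z * h⁻¹) * g⁻¹)) * h := by group
        _ = h⁻¹ * ((g * (h * z * h⁻¹) * g⁻¹) * (h * z * h⁻¹)) * h := by rw [hc]
        _ = _ := by group
    have h4 := hz.2 _ h1
    calc g * (h * z * h⁻¹) * g⁻¹ = h * ((h⁻¹ * g * h) * z * (h⁻¹ * g * h)⁻¹) * h⁻¹ := by group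
      _ = h * z * h⁻¹ := by rw [h4]

/-- if the involution `t` inverts `r` then `r^i t r^-i = r^(2i) t` -/
theorem inv_conj_pow {t r : G} (hr : t * r * t⁻¹ = r⁻¹) (i : ℕ) :
    r ^ i * t * (r ^ i)⁻¹ = r ^ (2 * i) * t := by
  have h1 : t * r ^ i * t⁻¹ = (r ^ i)⁻¹ := by
    rw [← conj_pow, hr, inv_pow]
  have h2 : t * (r ^ i)⁻¹ = r ^ i * t := by
    have : t * (r ^ i)⁻¹ * t⁻¹ = r ^ i := by
      have := congrArg (fun w => w⁻¹) h1
      simp only [mul_inv_rev, inv_inv] at this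
      rw [← mul_assoc] at this
      exact this
    rw [mul_inv_eq_iff_eq_mul] at this
    exact this
  rw [mul_assoc, h2, ← mul_assoc, ← pow_add, two_mul]

theorem iso_odd [Finite G] {z : G} (hz : Cfsg.IsIsolatedInvolution z) (g : G) :
    Odd (orderOf (z * (g * z * g⁻¹))) := by
  have hzz := iso_sq hz
  have hzi := iso_inv hz
  have huu : (g * z * g⁻¹) * (g * z * g⁻¹) = 1 := by
    calc (g * z * g⁻¹) * (g * z * g⁻¹) = g * (z * z) * g⁻¹ := by group
      _ = 1 := by rw [hzz]; group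
  have hui : (g * z * g⁻¹)⁻¹ = g * z * g⁻¹ := inv_eq_of_mul_eq_one_left huu
  generalize hu : g * z * g⁻¹ = u at huu hui
  have hzr : z * (z * u) * z⁻¹ = (z * u)⁻¹ := by
    rw [mul_inv_rev, hzi, hui, ← mul_assoc, hzz, one_mul]
  have hur : u * (z * u) * u⁻¹ = (z * u)⁻¹ := by
    rw [mul_inv_rev, hzi, hui, mul_assoc, mul_assoc, huu, mul_one]
  generalize hr : z * u = r at hzr hur
  by_contra hodd
  rw [Nat.not_odd_iff_even] at hodd
  obtain ⟨k, hk⟩ := hodd
  have hpos : 0 < orderOf r := orderOf_pos r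
  have hk0 : 0 < k := by omega
  have hc1 : r ^ k ≠ 1 := pow_ne_one_of_lt_orderOf hk0.ne' (by omega)
  have hcc : r ^ k * r ^ k = 1 := by rw [← pow_add, ← hk, pow_orderOf_eq_one]
  have hc_inv : (r ^ k)⁻¹ = r ^ k := inv_eq_of_mul_eq_one_left hcc
  have hzc : z * r ^ k * z⁻¹ = r ^ k := by
    rw [← conj_pow, hzr, inv_pow, hc_inv]
  have hzc' : z * r ^ k = r ^ k * z := by
    rw [mul_inv_eq_iff_eq_mul] at hzc; exact hzc
  have hcomm : Commute z (r ^ k * z) := by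
    unfold Commute SemiconjBy
    rw [← mul_assoc, hzc']
  have hconj : ∃ w : G, w * z * w⁻¹ = r ^ k * z := by
    rcases Nat.even_or_odd' k with ⟨j, hj | hj⟩
    · refine ⟨r ^ j, ?_⟩
      rw [inv_conj_pow hzr j, ← hj]
    · refine ⟨r ^ (j + 1) * g, ?_⟩
      have h1 : r ^ (j + 1) * g * z * (r ^ (j + 1) * g)⁻¹ = r ^ (j + 1) * u * (r ^ (j + 1))⁻¹ := by
        rw [← hu]; group
      rw [h1, inv_conj_pow hur (j + 1)]
      have h2 : 2 * (j + 1) = k + 1 := by omega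
      rw [h2, pow_succ, mul_assoc]
      congr 1
      rw [← hr, mul_assoc, huu, mul_one]
  obtain ⟨w, hw⟩ := hconj
  have h5 := hz.2 w (by rw [hw]; exact hcomm)
  rw [hw] at h5
  exact hc1 (mul_eq_right.mp h5)

/-- an explicit element conjugating `z` to a conjugate `u`, a power of `z * u` -/
theorem iso_conj_elt_of {z : G} (hz : Cfsg.IsIsolatedInvolution z) (g : G) {m : ℕ}
    (hm : orderOf (z * (g * z * g⁻¹)) = 2 * m + 1) :
    (z * (g * z * g⁻¹)) ^ m * z * ((z * (g * z * g⁻¹)) ^ m)⁻¹ = g * z * g⁻¹ := by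
  have hzz := iso_sq hz
  have hzi := iso_inv hz
  have huu : (g * z * g⁻¹) * (g * z * g⁻¹) = 1 := by
    calc (g * z * g⁻¹) * (g * z * g⁻¹) = g * (z * z) * g⁻¹ := by group
      _ = 1 := by rw [hzz]; group
  have hui : (g * z * g⁻¹)⁻¹ = g * z * g⁻¹ := inv_eq_of_mul_eq_one_left huu
  generalize g * z * g⁻¹ = u at huu hui hm ⊢
  have hzr : z * (z * u) * z⁻¹ = (z * u)⁻¹ := by
    rw [mul_inv_rev, hzi, hui, ← mul_assoc, hzz, one_mul]
  rw [inv_conj_pow hzr m]
  have h1 : (z * u) ^ (2 * m) * (z * u) = 1 := by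
    rw [← pow_succ, ← hm, pow_orderOf_eq_one]
  have h2 : (z * u) ^ (2 * m) = (z * u)⁻¹ := eq_inv_of_mul_eq_one_left h1
  rw [h2, mul_inv_rev, hzi, hui, mul_assoc, hzz, mul_one]

theorem iso_conj_elt [Finite G] {z : G} (hz : Cfsg.IsIsolatedInvolution z) (g : G) :
    ∃ m : ℕ, (z * (g * z * g⁻¹)) ^ m * z * ((z * (g * z * g⁻¹)) ^ m)⁻¹ = g * z * g⁻¹ := by
  obtain ⟨m, hm⟩ := iso_odd hz g
  exact ⟨m, iso_conj_elt_of hz g hm⟩

/-- elements of odd order with equal squares are equal -/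
theorem odd_sq_inj {k k' : G} (hk : Odd (orderOf k)) (hk' : Odd (orderOf k'))
    (h : k ^ 2 = k' ^ 2) : k = k' := by
  obtain ⟨M, hM⟩ := (hk.mul hk').add_one
  have e1 : k ^ (orderOf k * orderOf k' + 1) = k := by
    rw [pow_succ, pow_mul, pow_orderOf_eq_one, one_pow, one_mul]
  have e2 : k' ^ (orderOf k * orderOf k' + 1) = k' := by
    rw [pow_succ, mul_comm, pow_mul, pow_orderOf_eq_one, one_pow, one_mul]
  have hM' : orderOf k * orderOf k' + 1 = 2 * M := by omega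
  rw [hM', pow_mul] at e1 e2
  rw [← e1, ← e2, h]

end Cfsg.Agent.Lib.Helper20
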