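import Mathlib

set_option autoImplicit false

namespace Cfsg.Agent.Lib.Helper20.Matsumoto

section Alt

variable {S : Type*}

/-- The alternating word of length `k` starting with `a`. -/
def alt : ℕ → S → S → List S
  | 0, _, _ => []
  | k + 1, a, b => a :: alt k b a

theorem alt_zero (a b : S) : alt 0 a b = [] := rfl

theorem alt_succ (k : ℕ) (a b : S) : alt (k + 1) a b = a :: alt k b a := rfl

theorem length_alt (k : ℕ) (a b : S) : (alt k a b).length = k := by
  induction k generalizing a b with
  | zero => rfl
  | succ k ih => simp [alt_succ, ih]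

theorem dropLast_alt (k : ℕ) (a b : S) : (alt (k + 1) a b).dropLast = alt k a b := by
  induction k generalizing a b with
  | zero => rfl
  | succ k ih =>
    rw [alt_succ (k + 1), alt_succ k b a, List.dropLast_cons_cons, ← alt_succ k b a, ih b a, ← alt_succ]

theorem mul_pow_mul {H : Type*} [Monoid H] (x y : H) (k : ℕ) :
    x * (y * x) ^ k * y = (x * y) ^ (k + 1) := by
  induction k with
  | zero => simp
  | succ k ih =>
    rw [pow_succ (y * x), pow_succ (x * y) (k + 1), ← ih]
    simp only [mul_assoc]

theorem alt_prod {H : Type*} [Group H] (h : S → H) (a b : S) (ha : h a * h a = 1)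
    (hb : h b * h b = 1) (k : ℕ) :
    ((alt k a b).map h).prod * (((alt k b a).map h).prod)⁻¹ = (h a * h b) ^ k := by
  induction k generalizing a b with
  | zero => simp [alt_zero]
  | succ k ih =>
    have e := ih b a hb ha
    have hbinv : (h b)⁻¹ = h b := inv_eq_of_mul_eq_one_right hb
    simp only [alt_succ, List.map_cons, List.prod_cons, mul_inv_rev]
    calc h a * ((alt k b a).map h).prod * (((alt k a b).map h).prod⁻¹ * (h b)⁻¹)
        = h a * (((alt k b a).map h).prod * ((alt k a b).map h).prod⁻¹) * h b := by
          rw [hbinv]; simp only [mul_assoc]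
      _ = h a * (h b * h a) ^ k * h b := by rw [e]
      _ = (h a * h b) ^ (k + 1) := mul_pow_mul _ _ _

theorem alt_prod_add {H : Type*} [Monoid H] (h : S → H) (a b : S) (j i : ℕ) :
    ((alt (j + 2 * i) a b).map h).prod = (h a * h b) ^ i * ((alt j a b).map h).prod := by
  induction i with
  | zero => simp
  | succ i ih =>
    have e : j + 2 * (i + 1) = (j + 2 * i) + 1 + 1 := by ring
    rw [e, alt_succ, alt_succ, List.map_cons, List.map_cons, List.prod_cons, List.prod_cons, ih,
      pow_succ']
    simp only [mul_assoc]

end Alt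

section Words

variable {W : Type*} [Group W] {S : Type*} (f : S → W)

/-- The product of a word. -/
def wp (L : List S) : W := (L.map f).prod

theorem wp_nil : wp f [] = 1 := by simp [wp]

theorem wp_cons (s : S) (L : List S) : wp f (s :: L) = f s * wp f L := by simp [wp]

theorem wp_append (L L' : List S) : wp f (L ++ L') = wp f L * wp f L' := by simp [wp]

theorem wp_singleton (s : S) : wp f [s] = f s := by simp [wp]

/-- A word is reduced if no word with the same product is shorter. -/
def Red (L : List S) : Prop := ∀ L' : List S, wp f L' = wp f L → L.length ≤ L'.length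

variable {f}

theorem Red.of_append_left {A B : List S} (h : Red f (A ++ B)) : Red f A := by
  intro A' hA'
  have := h (A' ++ B) (by rw [wp_append, wp_append, hA'])
  simp only [List.length_append] at this
  omega

theorem Red.of_append_right {A B : List S} (h : Red f (A ++ B)) : Red f B := by
  intro B' hB'
  have := h (A ++ B') (by rw [wp_append, wp_append, hB'])
  simp only [List.length_append] at this
  omega

theorem Red.tail {s : S} {A : List S} (h : Red f (s :: A)) : Red f A :=
  Red.of_append_right (A := [s]) h

theorem red_of_eq {L Z : List S} (hL : Red f L) (h : wp f Z = wp f L)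
    (hlen : Z.length = L.length) : Red f Z := by
  intro L' hL'
  rw [hlen]
  exact hL L' (hL'.trans h)

theorem Red.length_eq {L L' : List S} (hL : Red f L) (hL' : Red f L') (h : wp f L = wp f L') :
    L.length = L'.length :=
  le_antisymm (hL L' h.symm) (hL' L h)

end Words

section Main

variable {W : Type*} [Group W] {S : Type*} {f : S → W}

theorem simple_sq (M : CoxeterMatrix S) (s : S) : M.simple s * M.simple s = 1 :=
  M.toCoxeterSystem.simple_mul_simple_self s

theorem simple_pow (M : CoxeterMatrix S) (s s' : S) : (M.simple s * M.simple s') ^ M s s' = 1 :=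
  M.toCoxeterSystem.simple_mul_simple_pow s s'

theorem matsumoto (hf2 : ∀ s, f s * f s = 1) (M : CoxeterMatrix S)
    (hM : ∀ s s', M s s' = orderOf (f s * f s'))
    (hD : ∀ (L : List S) (s : S), Red f L → ¬ Red f (s :: L) →
      ∃ L1 t L2, L = L1 ++ t :: L2 ∧ f s * wp f L1 = wp f L1 * f t) :
    ∀ (q : ℕ) (L L' : List S), L.length = q → Red f L → Red f L' → wp f L = wp f L' →
      wp M.simple L = wp M.simple L' := by
  intro q
  induction q using Nat.strong_induction_on with
  | _ q IH =>
  have sameFirst : ∀ (s : S) (A A' : List S), (s :: A).length = q → Red f (s :: A) →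
      Red f (s :: A') → wp f (s :: A) = wp f (s :: A') →
      wp M.simple (s :: A) = wp M.simple (s :: A') := by
    intro s A A' hlen hA hA' hw
    rw [wp_cons, wp_cons] at hw ⊢
    have := IH A.length (by simp only [List.length_cons] at hlen; omega) A A' rfl hA.tail hA'.tail
      (mul_left_cancel hw)
    rw [this]
  have sameLast : ∀ (t : S) (X0 Y0 : List S), (X0 ++ [t]).length = q → Red f (X0 ++ [t]) →
      Red f (Y0 ++ [t]) → wp f (X0 ++ [t]) = wp f (Y0 ++ [t]) →
      wp M.simple (X0 ++ [t]) = wp M.simple (Y0 ++ [t]) := by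
    intro t X0 Y0 hlen hX hY hw
    rw [wp_append, wp_append] at hw ⊢
    have := IH X0.length (by simp only [List.length_append, List.length_singleton] at hlen; omega)
      X0 Y0 rfl hX.of_append_left hY.of_append_left (mul_right_cancel hw)
    rw [this]
  have claim : ∀ (R : List S) (k : ℕ) (a b : S), a ≠ b → 1 ≤ k → k + R.length = q →
      Red f (alt k a b ++ R) → Red f (b :: (alt k a b ++ R).dropLast) →
      wp f (b :: (alt k a b ++ R).dropLast) = wp f (alt k a b ++ R) →
      wp M.simple (alt k a b ++ R) = wp M.simple (b :: (alt k a b ++ R).dropLast) := by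
    intro R
    induction R using List.reverseRecOn with
    | nil =>
      intro k a b hab hk hkq hX hY hw
      obtain ⟨k', rfl⟩ : ∃ k', k = k' + 1 := ⟨k - 1, by omega⟩
      simp only [List.append_nil] at hX hY hw ⊢
      rw [dropLast_alt] at hY hw ⊢
      rw [← alt_succ k' b a] at hY hw ⊢
      -- X = alt (k'+1) a b, Y = alt (k'+1) b a
      have hpow : (f a * f b) ^ (k' + 1) = 1 := by
        rw [← alt_prod f a b (hf2 a) (hf2 b) (k' + 1)]
        have : wp f (alt (k' + 1) b a) = wp f (alt (k' + 1) a b) := hw
        unfold wp at this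
        rw [this, mul_inv_cancel]
      have hdvd : orderOf (f a * f b) ∣ k' + 1 := orderOf_dvd_of_pow_eq_one hpow
      have hm : orderOf (f a * f b) = k' + 1 := by
        by_contra hne
        obtain ⟨c, hc⟩ := hdvd
        have hc2 : 2 ≤ c := by
          rcases c with _ | _ | c
          · omega
          · omega
          · omega
        have hm1 : 1 ≤ orderOf (f a * f b) := by
          rcases Nat.eq_zero_or_pos (orderOf (f a * f b)) with h0 | h0
          · rw [h0] at hc; omega
          · exact h0
        have h2m : 2 * orderOf (f a * f b) ≤ k' + 1 := by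
          calc 2 * orderOf (f a * f b) = orderOf (f a * f b) * 2 := by ring
            _ ≤ orderOf (f a * f b) * c := Nat.mul_le_mul_left _ hc2
            _ = k' + 1 := hc.symm
        have hsplit : k' + 1 = (k' + 1 - 2 * orderOf (f a * f b)) + 2 * orderOf (f a * f b) := by
          omega
        have hshort : wp f (alt (k' + 1 - 2 * orderOf (f a * f b)) a b) = wp f (alt (k' + 1) a b) := by
          unfold wp
          conv_rhs => rw [hsplit]
          rw [alt_prod_add, pow_orderOf_eq_one, one_mul]
        have := hX _ hshort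
        rw [length_alt, length_alt] at this
        omega
      have hMab : M a b = k' + 1 := by rw [hM, hm]
      have h1 := alt_prod M.simple a b (simple_sq M a) (simple_sq M b) (k' + 1)
      rw [← hMab, simple_pow] at h1
      rw [hMab] at h1
      unfold wp
      exact mul_inv_eq_one.mp h1
    | append_singleton R0 u ih =>
      intro k a b hab hk hkq hX hY hw
      have hdl : (alt k a b ++ (R0 ++ [u])).dropLast = alt k a b ++ R0 := by
        rw [← List.append_assoc, List.dropLast_concat]
      rw [hdl] at hY hw ⊢
      obtain ⟨k', rfl⟩ : ∃ k', k = k' + 1 := ⟨k - 1, by omega⟩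
      simp only [List.length_append, List.length_singleton] at hkq
      -- X = a :: T
      obtain ⟨T, hT⟩ : ∃ T, T = alt k' b a ++ (R0 ++ [u]) := ⟨_, rfl⟩
      have hXT : alt (k' + 1) a b ++ (R0 ++ [u]) = a :: T := by rw [hT]; rfl
      rw [hXT] at hX hw ⊢
      have hTlen : T.length = k' + (R0.length + 1) := by
        rw [hT]; simp [length_alt]
      obtain ⟨Y, hYdef⟩ : ∃ Y, Y = b :: (alt (k' + 1) a b ++ R0) := ⟨_, rfl⟩
      rw [← hYdef] at hY hw ⊢
      have hYlen : Y.length = k' + 1 + R0.length + 1 := by
        rw [hYdef]; simp [length_alt]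
      have hnr : ¬ Red f (a :: Y) := by
        intro h
        have := h T (by rw [wp_cons, hw, wp_cons, ← mul_assoc, hf2, one_mul])
        simp only [List.length_cons] at this
        omega
      obtain ⟨Y1, t, Y2, hYeq, hcomm⟩ := hD Y a hY hnr
      have hZw : wp f (a :: (Y1 ++ Y2)) = wp f (a :: T) := by
        rw [← hw, hYeq, wp_cons, wp_append, wp_append, wp_cons, ← mul_assoc, hcomm]
        simp only [mul_assoc]
      have hYlen' : Y.length = Y1.length + Y2.length + 1 := by
        rw [hYeq]; simp; omega
      have hZlen : (a :: (Y1 ++ Y2)).length = (a :: T).length := by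
        simp only [List.length_cons, List.length_append]
        omega
      have hZ : Red f (a :: (Y1 ++ Y2)) := red_of_eq hX hZw hZlen
      have hq : (a :: T).length = q := by
        simp only [List.length_cons]; omega
      have h1 : wp M.simple (a :: (Y1 ++ Y2)) = wp M.simple (a :: T) :=
        sameFirst a (Y1 ++ Y2) T (by rw [hZlen]; exact hq) hZ hX hZw
      rw [← h1]
      rcases List.eq_nil_or_concat Y2 with rfl | ⟨Y2', u', rfl⟩
      · -- Y = Y1 ++ [t], Z = a :: Y.dropLast
        have hYX : alt (k' + 1 + 1) b a ++ R0 = Y := by rw [hYdef]; rfl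
        have hYd : Y.dropLast = Y1 := by rw [hYeq, List.dropLast_concat]
        have h2 := ih (k' + 1 + 1) b a (Ne.symm hab) (by omega) (by omega)
        rw [hYX, hYd] at h2
        simp only [List.append_nil] at hZ hZw ⊢
        exact (h2 hY hZ (hZw.trans hw.symm)).symm
      · rw [List.concat_eq_append] at hYeq hZ hZw ⊢
        have e1 : a :: (Y1 ++ (Y2' ++ [u'])) = (a :: (Y1 ++ Y2')) ++ [u'] := by simp
        have e2 : Y = (Y1 ++ t :: Y2') ++ [u'] := by rw [hYeq]; simp
        rw [e1] at hZ hZw ⊢
        rw [e2] at hY hw ⊢
        exact sameLast u' _ _ (by simp only [List.length_append, List.length_cons,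
          List.length_nil, List.length_concat] at hYlen' hq ⊢; omega) hZ hY
          (hZw.trans hw.symm)
  intro L L' hlen hL hL' hw
  cases L with
  | nil =>
    have h0 : L'.length ≤ 0 := hL' [] hw
    have : L' = [] := List.length_eq_zero_iff.mp (by omega)
    rw [this]
  | cons s A =>
    cases L' with
    | nil =>
      have h0 := hL [] hw.symm
      simp at h0
    | cons s' A' =>
      by_cases hss : s = s'
      · subst hss
        exact sameFirst s A A' hlen hL hL' hw
      · have hl := Red.length_eq hL hL' hw
        have hnr : ¬ Red f (s' :: s :: A) := by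
          intro h
          have := h A' (by rw [wp_cons, hw, wp_cons, ← mul_assoc, hf2, one_mul])
          simp only [List.length_cons] at this hl
          omega
        obtain ⟨L1, t, L2, hLeq, hcomm⟩ := hD (s :: A) s' hL hnr
        have hZw : wp f (s' :: (L1 ++ L2)) = wp f (s :: A) := by
          rw [hLeq, wp_cons, wp_append, wp_append, wp_cons, ← mul_assoc, hcomm]
          simp only [mul_assoc]
        have hLlen : (s :: A).length = L1.length + L2.length + 1 := by
          rw [hLeq]; simp; omega
        have hZlen : (s' :: (L1 ++ L2)).length = (s :: A).length := by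
          rw [hLlen]; simp
        have hZ : Red f (s' :: (L1 ++ L2)) := red_of_eq hL hZw hZlen
        have h1 : wp M.simple (s' :: (L1 ++ L2)) = wp M.simple (s' :: A') :=
          sameFirst s' (L1 ++ L2) A' (by rw [hZlen]; exact hlen) hZ hL' (hZw.trans hw)
        rw [← h1]
        rcases List.eq_nil_or_concat L2 with rfl | ⟨L2', u, rfl⟩
        · have hXA : alt 1 s s' ++ A = s :: A := rfl
          have hd : (s :: A).dropLast = L1 := by rw [hLeq, List.dropLast_concat]
          have h2 := claim A 1 s s' hss le_rfl (by simp only [List.length_cons] at hlen; omega)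
          rw [hXA, hd] at h2
          simp only [List.append_nil] at hZ hZw ⊢
          exact h2 hL hZ hZw
        · rw [List.concat_eq_append] at hLeq hZ hZw ⊢
          have e1 : s' :: (L1 ++ (L2' ++ [u])) = (s' :: (L1 ++ L2')) ++ [u] := by simp
          have e2 : s :: A = (L1 ++ t :: L2') ++ [u] := by rw [hLeq]; simp
          rw [e1] at hZ hZw ⊢
          rw [e2] at hL hw hlen hZw ⊢
          exact sameLast u _ _ hlen hL hZ hZw.symm

theorem wp_reverse (hf2 : ∀ s, f s * f s = 1) (L : List S) :
    wp f L.reverse = (wp f L)⁻¹ := by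
  induction L with
  | nil => simp [wp]
  | cons s L ih =>
    rw [List.reverse_cons, wp_append, ih, wp_singleton, wp_cons, mul_inv_rev,
      inv_eq_of_mul_eq_one_right (hf2 s)]

theorem exists_word (hf2 : ∀ s, f s * f s = 1) (hgen : Subgroup.closure (Set.range f) = ⊤)
    (w : W) : ∃ L : List S, wp f L = w := by
  have hw : w ∈ Subgroup.closure (Set.range f) := by rw [hgen]; trivial
  induction hw using Subgroup.closure_induction with
  | mem x hx =>
    obtain ⟨s, rfl⟩ := hx
    exact ⟨[s], wp_singleton f s⟩
  | one => exact ⟨[], wp_nil f⟩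
  | mul x y _ _ hx hy =>
    obtain ⟨L, rfl⟩ := hx
    obtain ⟨L', rfl⟩ := hy
    exact ⟨L ++ L', wp_append f L L'⟩
  | inv x _ hx =>
    obtain ⟨L, rfl⟩ := hx
    exact ⟨L.reverse, wp_reverse hf2 L⟩

theorem exists_red (hf2 : ∀ s, f s * f s = 1) (hgen : Subgroup.closure (Set.range f) = ⊤)
    (w : W) : ∃ L : List S, wp f L = w ∧ Red f L := by
  classical
  have hex : ∃ k : ℕ, ∃ L : List S, wp f L = w ∧ L.length = k := by
    obtain ⟨L, hL⟩ := exists_word hf2 hgen w
    exact ⟨L.length, L, hL, rfl⟩
  obtain ⟨L, hL, hk⟩ := Nat.find_spec hex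
  refine ⟨L, hL, fun L' hL' => ?_⟩
  rw [hk]
  exact Nat.find_min' hex ⟨L', hL'.trans hL, rfl⟩

theorem orderOf_mul_swap (x y : W) : orderOf (x * y) = orderOf (y * x) := by
  have h := orderOf_injective (MulAut.conj x).toMonoidHom (MulEquiv.injective _) (y * x)
  rw [← h]
  congr 1
  show x * y = x * (y * x) * x⁻¹
  group

/-- A group generated by involutions satisfying the deletion/exchange condition is a Coxeter
group on these involutions. -/
theorem coxeter_of_exchange (f : S → W) (hinj : Function.Injective f)
    (hf2 : ∀ s, f s * f s = 1) (hgen : Subgroup.closure (Set.range f) = ⊤)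
    (hD : ∀ (L : List S) (s : S), Red f L → ¬ Red f (s :: L) →
      ∃ L1 t L2, L = L1 ++ t :: L2 ∧ f s * wp f L1 = wp f L1 * f t) :
    ∃ (M : CoxeterMatrix S) (cs : CoxeterSystem M W), ∀ s, cs.simple s = f s := by
  classical
  obtain ⟨M, hM⟩ : ∃ M : CoxeterMatrix S, ∀ s s', M s s' = orderOf (f s * f s') := by
    refine ⟨{ M := Matrix.of fun s s' => orderOf (f s * f s')
              isSymm := Matrix.IsSymm.ext fun i j => orderOf_mul_swap _ _
              diagonal := fun s => by simp [hf2]
              off_diagonal := fun s s' hne h => ?_ }, fun s s' => rfl⟩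
    simp only [Matrix.of_apply, orderOf_eq_one_iff] at h
    apply hne
    apply hinj
    have h1 : f s' = (f s)⁻¹ := (inv_eq_of_mul_eq_one_right h).symm
    rw [h1, inv_eq_of_mul_eq_one_right (hf2 s)]
  have mats := matsumoto hf2 M hM hD
  -- the homomorphism from the Coxeter group
  have hlift : M.IsLiftable f := by
    intro s s'
    rw [hM]
    exact pow_orderOf_eq_one _
  obtain ⟨φ, hφ⟩ : ∃ φ : M.Group →* W, ∀ s, φ (M.simple s) = f s :=
    ⟨M.toCoxeterSystem.lift ⟨f, hlift⟩, fun s => M.toCoxeterSystem.lift_apply_simple hlift s⟩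
  have hφw : ∀ L : List S, φ (wp M.simple L) = wp f L := by
    intro L
    induction L with
    | nil => simp [wp]
    | cons s L ih => rw [wp_cons, wp_cons, map_mul, hφ, ih]
  -- the inverse map
  choose red hred using exists_red (f := f) hf2 hgen
  have hg1 : wp M.simple (red 1) = 1 := by
    have h0 : (red 1).length ≤ 0 := (hred 1).2 [] (by rw [(hred 1).1, wp_nil])
    have : red 1 = [] := List.length_eq_zero_iff.mp (by omega)
    rw [this, wp_nil]
  have hkey : ∀ (s : S) (w : W), wp M.simple (red (f s * w)) = M.simple s * wp M.simple (red w) := by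
    intro s w
    obtain ⟨hLw, hL⟩ := hred w
    obtain ⟨hLsw, hLs⟩ := hred (f s * w)
    by_cases hr : Red f (s :: red w)
    · rw [← wp_cons]
      exact mats _ _ _ rfl hLs hr (by rw [hLsw, wp_cons, hLw])
    · obtain ⟨L1, t, L2, hLeq, hcomm⟩ := hD (red w) s hL hr
      have hw' : wp f (L1 ++ L2) = f s * w := by
        rw [← hLw, hLeq, wp_append, wp_append, wp_cons, ← mul_assoc, ← mul_assoc, hcomm]
        have ht : f t * f t = 1 := hf2 t
        rw [mul_assoc (wp f L1) (f t) (f t), ht, mul_one]
      have hlen : (red w).length = L1.length + L2.length + 1 := by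
        rw [hLeq]; simp; omega
      have hsw : wp f (s :: (L1 ++ L2)) = wp f (red w) := by
        rw [wp_cons, hw', ← mul_assoc, hf2, one_mul, hLw]
      have hsr : Red f (s :: (L1 ++ L2)) := red_of_eq hL hsw (by rw [hlen]; simp)
      have hr' : Red f (L1 ++ L2) := hsr.tail
      have e1 : wp M.simple (red (f s * w)) = wp M.simple (L1 ++ L2) :=
        mats _ _ _ rfl hLs hr' (by rw [hLsw, hw'])
      have e2 : wp M.simple (red w) = wp M.simple (s :: (L1 ++ L2)) :=
        mats _ _ _ rfl hL hsr hsw.symm
      rw [e1, e2, wp_cons, ← mul_assoc, simple_sq, one_mul]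
  have hgφ : ∀ x : M.Group, wp M.simple (red (φ x)) = x := by
    intro x
    induction x using M.toCoxeterSystem.simple_induction_left with
    | one => rw [map_one]; exact hg1
    | mul_simple_left x s ih =>
      have hs : M.toCoxeterSystem.simple s = M.simple s := rfl
      rw [hs, map_mul, hφ, hkey, ih]
  have hφinj : Function.Injective φ := by
    intro x y hxy
    rw [← hgφ x, ← hgφ y, hxy]
  have hφsurj : Function.Surjective φ := by
    intro w
    obtain ⟨L, rfl⟩ := exists_word hf2 hgen w
    exact ⟨wp M.simple L, hφw L⟩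
  refine ⟨M, ⟨(MulEquiv.ofBijective φ ⟨hφinj, hφsurj⟩).symm⟩, fun s => ?_⟩
  show (MulEquiv.ofBijective φ ⟨hφinj, hφsurj⟩).symm.symm (PresentedGroup.of s) = f s
  rw [MulEquiv.symm_symm]
  exact hφ s

end Main

end Cfsg.Agent.Lib.Helper20.Matsumoto
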